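import Cfsg.Agent.H387.RB.Glue
import Cfsg.Agent.H194.RB.Inv
import Cfsg.Agent.H980.RB.Trace
import Cfsg.Agent.H358.RB.Conj

/-!
# The frame of `F₄(3)` (S2464): `Fr QQ (xp 47) kap` (helper194)

* `frQ : Fr QQ (xp 47) kap`;
* `trace_24 : tr ρ (xp 24) = tr ρ (xp 47)`.
-/

set_option autoImplicit false
set_option maxRecDepth 100000

namespace Cfsg.Agent.H194.RB

open Cfsg.Lie Cfsg.Agent.H700.F43 Cfsg.Agent.H92.RB Cfsg.Agent.H980.RB Cfsg.Agent.H387.RB Cfsg.Agent.H323.Pw Module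

theorem z47_mem : xp 47 ∈ QQ := ker_mem.1 (xs_ff dat).mem

theorem z47_pow : (xp 47 : Gm) ^ 3 = 1 := by
  have h := xs_pow (xs_ff dat)
  have h2 := congrArg (fun x : ↥PP => (x : Gm)) h
  exact h2

theorem z47_ne : (xp 47 : Gm) ≠ 1 := by
  intro h
  have h1 := (xs_ff dat).ord
  have h2 : zP = 1 := Subtype.ext h
  rw [h2, orderOf_one] at h1
  exact absurd h1 (by norm_num)

theorem kap_zpow {q : Gm} (h : q ∈ Subgroup.zpowers (xp 47)) : kap q = 0 := by
  rcases mem_zpowers_cases z47_pow h with rfl | rfl | rfl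
  · exact kap_one
  · exact dat.k47
  · rw [pow_two, kap_mul z47_mem z47_mem, dat.k47, add_zero]

/-- the image of `kap` -/
noncomputable def imK : AddSubgroup V14 where
  carrier := {v | ∃ q ∈ QQ, kap q = v}
  zero_mem' := ⟨1, one_mem _, kap_one⟩
  add_mem' := by
    rintro a b ⟨q, hq, rfl⟩ ⟨r, hr, rfl⟩
    exact ⟨q * r, mul_mem hq hr, kap_mul hq hr⟩
  neg_mem' := by
    rintro a ⟨q, hq, rfl⟩
    refine ⟨q⁻¹, inv_mem hq, ?_⟩
    have h := kap_mul hq (inv_mem hq)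
    rw [mul_inv_cancel, kap_one] at h
    exact (neg_eq_of_add_eq_zero_right h.symm).symm

theorem f3_eta : ∀ (j : Fin 14) (c : F3), c = 0 ∨ c = eta j ∨ c = -eta j := by decide

theorem single_mem (j : Fin 14) (c : F3) : (Pi.single j c : V14) ∈ imK := by
  have h1 : (Pi.single j (eta j) : V14) ∈ imK := ⟨xp (ord14 j), xp_mem (ord14_mem j), kap_xp j⟩
  rcases f3_eta j c with h | h | h
  · rw [h, Pi.single_zero]; exact zero_mem _
  · rw [h]; exact h1
  · rw [h, Pi.single_neg]; exact neg_mem h1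

theorem kap_surj (v : V14) : ∃ q ∈ QQ, kap q = v := by
  have h : v ∈ imK := by
    rw [← Finset.univ_sum_single v]
    exact sum_mem fun j _ => single_mem j (v j)
  exact h

theorem act_Q {A : Sp} {X : V14 →ₗ[F3] V14} (hX : Rel A X) :
    ∃ g : Gm, (∀ q, q ∈ QQ ↔ g * q * g⁻¹ ∈ QQ) ∧ ∀ q ∈ QQ, kap (g * q * g⁻¹) = X (kap q) := by
  obtain ⟨g, hg⟩ := ff_surj A
  obtain ⟨Y, h1, h2⟩ := H334.F43.act g
  rw [hg] at h2
  have h3 := H675.F43.rel_unique h2 hX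
  subst h3
  refine ⟨g, fun q => ⟨fun hq => H334.F43.conj_QQ g.2 hq, fun hq => ?_⟩, h1⟩
  have h4 := H334.F43.conj_QQ (inv_mem g.2) hq
  have h5 : ∀ {G : Type} [Group G] (a b : G), a⁻¹ * (a * b * a⁻¹) * a⁻¹⁻¹ = b := by
    intro G _ a b
    group
  rwa [h5] at h4

theorem conj_abs {H : Type*} [Group H] {Q : Subgroup H} {z : H} (h : XS 3 Q z) {q : H} (hq : q ∈ Q)
    (hz : q ∉ Subgroup.zpowers z) : ∃ y : H, y * q * y⁻¹ = q * z := by
  obtain ⟨y, hy, h1, h2⟩ := xs_nd h q hq hz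
  have hc := h.central
  rcases mem_zpowers_cases (xs_pow h) h1 with h3 | h3 | h3
  · exact absurd h3 h2
  · refine ⟨y, ?_⟩
    rw [hc, ← h3]
    group
  · have h4 : y * q * y⁻¹ = q * z⁻¹ := by
      have h5 : z⁻¹ = z ^ 2 := inv_eq_of_mul_eq_one_right (by rw [← pow_succ']; exact xs_pow h)
      have h6 : q * z ^ 2 = z ^ 2 * q := by
        rw [pow_two, ← mul_assoc, hc, mul_assoc, hc, ← mul_assoc]
      rw [h5, h6, ← h3]
      group
    exact ⟨y⁻¹, conj_inv hc h4⟩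

theorem val_conj {G : Type*} [Group G] {P : Subgroup G} {y q z : ↥P} (h : y * q * y⁻¹ = q * z) :
    (y : G) * (q : G) * (y : G)⁻¹ = (q : G) * (z : G) := congrArg Subtype.val h

theorem conj_Q {q : Gm} (hq : q ∈ QQ) (hz : q ∉ Subgroup.zpowers (xp 47)) : ∃ g : Gm, g * q * g⁻¹ = q * xp 47 := by
  obtain ⟨y, h⟩ := conj_abs (q := (⟨q, QQ_le hq⟩ : ↥PP)) (xs_ff dat) (ker_mem.2 hq) (fun h => hz ((zpow_iff z_mem).1 h))
  have h1 := val_conj h
  exact ⟨(y : Gm), h1⟩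

/-- **the frame** -/
theorem frQ : Fr QQ (xp 47) kap where
  z_mem := z47_mem
  z_ne := z47_ne
  z3 := z47_pow
  mul _ hq _ hr := kap_mul hq hr
  ker _ hq := ⟨dat.kk _ hq, kap_zpow⟩
  surj := kap_surj
  conj _ hq hz := conj_Q hq hz
  act _ _ hX := act_Q hX

theorem fin_QQ : Finite ↥QQ := Nat.finite_of_card_ne_zero (by rw [dat.card]; norm_num)

variable {V : Type*} [AddCommGroup V] [Module ℂ V]

theorem trace_24 (ρ : Representation ℂ Gm V) : LinearMap.trace ℂ V (ρ (xp 24)) = LinearMap.trace ℂ V (ρ (xp 47)) := by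
  obtain ⟨w, hw⟩ := H358.RB.exists_w
  rw [← hw, trace_conj]

theorem trace_zsq (ρ : Representation ℂ Gm V) :
    LinearMap.trace ℂ V (ρ (xp 47 ^ 2)) = LinearMap.trace ℂ V (ρ (xp 47)) := by
  have h1 : ∀ {G : Type} [Group G] {z w : G}, z ^ 3 = 1 → w * z * w⁻¹ = z⁻¹ → z ^ 2 = w * z * w⁻¹ := by
    intro G _ z w h3 h
    rw [h]
    exact eq_inv_of_mul_eq_one_left (by rw [← pow_succ]; exact h3)
  rw [h1 z47_pow H358.RB.conj_h, trace_conj]

theorem kap_24 : kap (xp 24) = Pi.single 0 1 := kap_xp 0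

theorem xp24_mem : xp 24 ∈ QQ := xp_mem (ord14_mem 0)

theorem single_ne : (Pi.single 0 1 : V14) ≠ 0 := by
  intro h
  have h1 := congrFun h 0
  simp at h1

theorem xp24_nz : xp 24 ∉ Subgroup.zpowers (xp 47) := fun h => single_ne (by rw [← kap_24, kap_zpow h])

end Cfsg.Agent.H194.RB
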