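import Cfsg.Agent.H194.RB.PlugA
import Cfsg.Agent.H210.F43.TabAll

/-!
# The ratio bound for `F₄(3)` (S2464; helper194)

`ρ` a representation of `F₄(3)` without nonzero fixed vectors:

* `ratio_QQ` : `11 ‖tr q‖ ≤ dim V` for `q ∈ QQ`, `q ∉ ⟨z⟩`;
* `ratio_PP` : `11 ‖tr g‖ ≤ dim V` for `g ∈ PP`, `ff g ≠ 1` and `g ~ g z` under `QQ` or `|FixX g| ≤ 3⁹`.
-/

set_option autoImplicit false

namespace Cfsg.Agent.H194.RB

open Cfsg.Lie Cfsg.Agent.H700.F43 Cfsg.Agent.H323.Pw Module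
open Cfsg.Agent.H186.F43 (fx)

theorem tab : Tab := fun D h0 hi _ hv => H210.F43.tab_all D h0 hi hv

variable {V : Type*} [AddCommGroup V] [Module ℂ V] [FiniteDimensional ℂ V]

/-- **the elements of `QQ`** -/
theorem ratio_QQ (ρ : Representation ℂ Gm V) (h : fx ρ Set.univ = ⊥) {q : Gm} (hq : q ∈ QQ)
    (hz : q ∉ Subgroup.zpowers (xp 47)) : 11 * ‖LinearMap.trace ℂ V (ρ q)‖ ≤ finrank ℂ V :=
  ratio_QQ_of tab ρ h hq hz

/-- **the elements of `PP`** -/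
theorem ratio_PP (ρ : Representation ℂ Gm V) (h : fx ρ Set.univ = ⊥) (g : ↥PP) (hg : ff g ≠ 1)
    (hd : (∃ y ∈ ff.ker, y * g * y⁻¹ = g * zP) ∨ Nat.card (FixX ff.ker zP g) ≤ 3 ^ 9) :
    11 * ‖LinearMap.trace ℂ V (ρ (g : Gm))‖ ≤ finrank ℂ V :=
  ratio_PP_of tab ρ h g hg hd

end Cfsg.Agent.H194.RB
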