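import Cfsg.Agent.H194.RB.Frm
import Cfsg.Agent.H69.F43.Root
import Cfsg.Agent.H186.F43.Mzero
import Cfsg.Agent.H625.RB.Fix12

/-!
# The ratio bound for `F₄(3)` (S2464), the plug (helper194)

`Tab` : `|FT D v| ≤ D 0 + (37/280) AA D` for the invariant `D ≥ 0` and `v ≠ 0`. From it, for `ρ` without fixed vectors:

* `ratio_QQ_of` : `11 ‖tr q‖ ≤ dim V` for `q ∈ QQ`, `q ∉ ⟨z⟩`;
* `ratio_PP_of` : `11 ‖tr g‖ ≤ dim V` for `g ∈ PP`, `ff g ≠ 1` and `g ~ g z` under `QQ` or `|FixX g| ≤ 3⁹`.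
-/

set_option autoImplicit false
set_option maxRecDepth 100000

namespace Cfsg.Agent.H194.RB

open Cfsg.Lie Cfsg.Agent.H700.F43 Cfsg.Agent.H92.RB Cfsg.Agent.H980.RB Cfsg.Agent.H387.RB Cfsg.Agent.H323.Pw Module
open Cfsg.Agent.H186.F43 (fx mem_fx)

/-- the bound on the Fourier transforms -/
def Tab : Prop := ∀ D : V14 → ℝ, (∀ μ, 0 ≤ D μ) → Inv D → ∀ v, v ≠ 0 → |FT D v| ≤ D 0 + 37 / 280 * AA D

variable {V : Type*} [AddCommGroup V] [Module ℂ V]

theorem fx_eq {G : Type*} [Group G] (ρ : Representation ℂ G V) (S : Set G) : fx ρ S = fixM ρ S := by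
  ext v
  rw [mem_fx, mem_fixM]

variable [FiniteDimensional ℂ V]

/-- `dim V^z` -/
noncomputable def aa (ρ : Representation ℂ Gm V) : ℝ := finrank ℂ ↥(fixM ρ {(xp 47 : Gm)})

/-- `dim V^Q` -/
noncomputable def m0 (ρ : Representation ℂ Gm V) : ℝ := finrank ℂ ↥(fixM ρ (QQ : Set Gm))

/-- the bound on `Q` -/
noncomputable def bQ (ρ : Representation ℂ Gm V) : ℝ := m0 ρ + 37 / 280 * (aa ρ - m0 ρ)

theorem m0_nonneg (ρ : Representation ℂ Gm V) : 0 ≤ m0 ρ := Nat.cast_nonneg _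

theorem aa_nonneg (ρ : Representation ℂ Gm V) : 0 ≤ aa ρ := Nat.cast_nonneg _

theorem m0_le_aa (ρ : Representation ℂ Gm V) : m0 ρ ≤ aa ρ := by
  have h : fixM ρ (QQ : Set Gm) ≤ fixM ρ {(xp 47 : Gm)} := by
    intro v hv s hs
    rw [Set.mem_singleton_iff.1 hs]
    exact hv _ z47_mem
  have h2 := Submodule.finrank_mono h
  unfold m0 aa
  exact_mod_cast h2

theorem aa_le (ρ : Representation ℂ Gm V) : aa ρ ≤ finrank ℂ V := by
  unfold aa
  exact_mod_cast Submodule.finrank_le _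

theorem bQ_nonneg (ρ : Representation ℂ Gm V) : 0 ≤ bQ ρ := by
  have h1 := m0_nonneg ρ
  have h2 := m0_le_aa ρ
  unfold bQ
  nlinarith

theorem hBB : ∀ (A : Sp) (X : V14 →ₗ[F3] V14), Rel A X → ∀ u v : V14, BB (X u) (X v) = BB u v :=
  fun _ _ h u v => BB_act h u v

theorem re_z (ρ : Representation ℂ Gm V) :
    (LinearMap.trace ℂ V (ρ (xp 47))).re = (3 * aa ρ - finrank ℂ V) / 2 := by
  have := fin_QQ
  have h := congrArg Complex.re (trace_z frQ ρ (trace_zsq ρ))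
  simp only [Complex.mul_re, Complex.add_re, Complex.natCast_re, Complex.natCast_im, Complex.re_ofNat, Complex.im_ofNat,
    zero_mul, mul_zero, sub_zero] at h
  have h2 : (aa ρ : ℝ) = finrank ℂ ↥(fixM ρ {(xp 47 : Gm)}) := rfl
  rw [h2]
  linarith

/-- `m₀ ≤ (13/243) b`, `b = (d - a) / 2` -/
theorem m0_bound (ρ : Representation ℂ Gm V) (h : fx ρ Set.univ = ⊥) :
    m0 ρ ≤ 13 / 243 * ((finrank ℂ V - aa ρ) / 2) := by
  have h1 := H186.F43.m0_le ρ h
  rw [re_z, fx_eq] at h1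
  have h2 : m0 ρ = finrank ℂ ↥(fixM ρ (QQ : Set Gm)) := rfl
  rw [h2]
  linarith

/-- the bound on `a`, from the long root elements in `Q` -/
theorem aa_bound (ρ : Representation ℂ Gm V) : (3 * aa ρ - finrank ℂ V) / 2 ≤ bQ ρ := by
  have := fin_QQ
  have h1 := trace_eq_FT frQ ρ xp24_mem xp24_nz
  rw [trace_24, kap_24] at h1
  have h2 := congrArg Complex.re h1
  rw [re_z, Complex.ofReal_re] at h2
  have h3 := (H69.F43.tab_root (Dm_nonneg frQ ρ) (inv_Dm frQ ρ hBB)).2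
  rw [Dm_zero, AA_Dm] at h3
  rw [h2]
  exact h3

/-- the trace on `Q` -/
theorem norm_QQ (hT : Tab) (ρ : Representation ℂ Gm V) {q : Gm} (hq : q ∈ QQ) (hz : q ∉ Subgroup.zpowers (xp 47)) :
    ‖LinearMap.trace ℂ V (ρ q)‖ ≤ bQ ρ := by
  have := fin_QQ
  have hk : kap q ≠ 0 := fun h => hz (dat.kk q hq h)
  have h1 := hT _ (Dm_nonneg frQ ρ) (inv_Dm frQ ρ hBB) _ hk
  rw [Dm_zero, AA_Dm] at h1
  rw [trace_eq_FT frQ ρ hq hz, Complex.norm_real, Real.norm_eq_abs]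
  exact h1

theorem ratio_QQ_of (hT : Tab) (ρ : Representation ℂ Gm V) (h : fx ρ Set.univ = ⊥) {q : Gm} (hq : q ∈ QQ)
    (hz : q ∉ Subgroup.zpowers (xp 47)) : 11 * ‖LinearMap.trace ℂ V (ρ q)‖ ≤ finrank ℂ V := by
  have h1 := norm_QQ hT ρ hq hz
  have h2 := m0_bound ρ h
  have h3 := aa_bound ρ
  have h4 := m0_nonneg ρ
  have h5 := m0_le_aa ρ
  have h6 := aa_le ρ
  unfold bQ at h1 h3
  linarith

/-! ### `PP` -/

/-- the restriction to `PP` -/
noncomputable def rs (ρ : Representation ℂ Gm V) : Representation ℂ ↥PP V := ρ.comp PP.subtype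

omit [FiniteDimensional ℂ V] in
theorem rs_apply (ρ : Representation ℂ Gm V) (g : ↥PP) : rs ρ g = ρ (g : Gm) := rfl

omit [FiniteDimensional ℂ V] in
theorem eig_eq (ρ : Representation ℂ Gm V) : eigM (rs ρ) zP 1 = fixM ρ {(xp 47 : Gm)} := by
  ext v
  rw [mem_eigM, mem_fixM, one_smul, rs_apply]
  constructor
  · intro h s hs
    rw [Set.mem_singleton_iff.1 hs]
    exact h
  · intro h
    exact h _ (Set.mem_singleton _)

theorem fin_PP : Finite ↥PP := inferInstance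

theorem comm_z {H : Type*} [Group H] {Q : Subgroup H} {z : H} (h : XS 3 Q z) {y g : H} (hy : y * g * y⁻¹ = g * z) :
    y * g * y⁻¹ * g⁻¹ = z := by
  rw [hy, h.central, mul_inv_cancel_right]

theorem ratio_PP_of (hT : Tab) (ρ : Representation ℂ Gm V) (h : fx ρ Set.univ = ⊥) (g : ↥PP) (hg : ff g ≠ 1)
    (hd : (∃ y ∈ ff.ker, y * g * y⁻¹ = g * zP) ∨ Nat.card (FixX ff.ker zP g) ≤ 3 ^ 9) :
    11 * ‖LinearMap.trace ℂ V (ρ (g : Gm))‖ ≤ finrank ℂ V := by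
  have := fin_PP
  have h2 := m0_bound ρ h
  have h3 := aa_bound ρ
  have h4 := m0_nonneg ρ
  have h5 := m0_le_aa ρ
  have h6 := aa_le ρ
  have h7 := bQ_nonneg ρ
  have hB : ∀ q ∈ ff.ker, q ∉ Subgroup.zpowers zP → ‖LinearMap.trace ℂ V (rs ρ q)‖ ≤ bQ ρ := by
    intro q hq hz
    rw [rs_apply]
    exact norm_QQ hT ρ (ker_mem.1 hq) fun h => hz ((zpow_iff z_mem).2 h)
  have ha : (finrank ℂ ↥(eigM (rs ρ) zP 1) : ℝ) = aa ρ := by rw [eig_eq, aa]
  rcases hd with ⟨y, hy, hd⟩ | hd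
  · have hc : (Nat.card (FixX ff.ker zP g) : ℝ) ≤ 1 / 27 * Nat.card ff.ker := by
      rw [card_ker dat]
      have h8 : (Nat.card (FixX ff.ker zP g) : ℝ) ≤ ((3 ^ 12 : ℕ) : ℝ) := Nat.cast_le.2 (H625.RB.fix12 g hg)
      refine h8.trans ?_
      norm_num
    have h9 := comm_z (xs_ff dat) hd
    have h1 := tr_conj_gen (xs_ff dat) (rs ρ) g h7 hB hc (x := y) (by rw [h9]; exact Subgroup.mem_zpowers _)
      (by
        rw [h9]
        intro h10
        have h11 := (xs_ff dat).ord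
        rw [h10, orderOf_one] at h11
        exact absurd h11 (by norm_num))
    rw [ha, rs_apply] at h1
    unfold bQ at h1 h3
    linarith
  · have hc : (Nat.card (FixX ff.ker zP g) : ℝ) ≤ (1 / 27 : ℝ) ^ 2 * Nat.card ff.ker := by
      rw [card_ker dat]
      have h8 : (Nat.card (FixX ff.ker zP g) : ℝ) ≤ ((3 ^ 9 : ℕ) : ℝ) := Nat.cast_le.2 hd
      refine h8.trans ?_
      norm_num
    have h1 := tr_fix_gen (xs_ff dat) (rs ρ) g h7 hB (s := 1 / 27) (by norm_num) hc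
    rw [ha, rs_apply] at h1
    unfold bQ at h1 h3
    linarith

end Cfsg.Agent.H194.RB
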