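import Cfsg.Agent.H194.RB.Plug
import Cfsg.Agent.H885.FT.Asm

/-!
# The row `F₄(3)` of S2464 (helper194)

`t6_f43` : `T6` for `F₄(K)`, `|K| = 3`, from the ratio bound and `H885.FT.t6_of_RB`.
-/

set_option autoImplicit false

namespace Cfsg.Agent.H194.RB

open Cfsg Cfsg.Lie Cfsg.Agent.Characters Cfsg.Agent.H65.Ore Cfsg.Agent.H777.T6 Cfsg.Agent.H885.FT
open Cfsg.Agent.H700.F43 Cfsg.Agent.H323.Pw Cfsg.Agent.H750.F43
open Cfsg.Agent.H186.F43 (fx mem_fx)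

universe u

/-- an irreducible representation, not trivial, has no fixed vectors -/
theorem fx_bot {G : Type*} [Group G] {V : Type*} [AddCommGroup V] [Module ℂ V] (ρ : Representation ℂ G V)
    (h : ρ.IsIrreducible) (hg : ∃ g, ρ g ≠ 1) : fx ρ Set.univ = ⊥ := by
  let S : Subrepresentation ρ :=
    { toSubmodule := fx ρ Set.univ
      apply_mem_toSubmodule := fun g v hv s hs => by
        rw [mem_fx] at hv
        rw [hv g (Set.mem_univ g)]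
        exact hv s hs }
  rcases h.eq_bot_or_eq_top S with h1 | h1
  · exact congrArg Subrepresentation.toSubmodule h1
  · exfalso
    obtain ⟨g, hg⟩ := hg
    apply hg
    apply LinearMap.ext
    intro v
    have h2 : v ∈ S := by rw [h1]; trivial
    exact h2 g (Set.mem_univ g)

theorem norm_char_one {G : Type*} [Group G] {m : ℕ} (ρ : Representation ℂ G (Fin m → ℂ)) :
    ‖ρ.character 1‖ = (Module.finrank ℂ (Fin m → ℂ) : ℝ) := by
  show ‖LinearMap.trace ℂ _ (ρ 1)‖ = _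
  rw [map_one, LinearMap.trace_one, Complex.norm_natCast]

theorem RBP (χ : IrrCharacter G3) (hχ : χ ≠ one1 G3) (g : ↥PP) (hg : ff g ≠ 1)
    (hd : (∃ y ∈ ff.ker, y * g * y⁻¹ = g * zP) ∨ Nat.card (FixX ff.ker zP g) ≤ 3 ^ 9) :
    11 * ‖(χ : G3 → ℂ) (g : G3)‖ ≤ ‖(χ : G3 → ℂ) 1‖ := by
  refine irr_of_rep (P := fun f : G3 → ℂ => 11 * ‖f (g : G3)‖ ≤ ‖f 1‖) (fun m ρ hρ hne => ?_) χ hχ
  rw [norm_char_one]
  exact ratio_PP ρ (fx_bot ρ hρ hne) g hg hd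

theorem RBQ (χ : IrrCharacter G3) (hχ : χ ≠ one1 G3) (q : G3) (hq : q ∈ (QQ : Subgroup G3))
    (hz : q ∉ Subgroup.zpowers (zz : G3)) : 11 * ‖(χ : G3 → ℂ) q‖ ≤ ‖(χ : G3 → ℂ) 1‖ := by
  refine irr_of_rep (P := fun f : G3 → ℂ => 11 * ‖f q‖ ≤ ‖f 1‖) (fun m ρ hρ hne => ?_) χ hχ
  rw [norm_char_one]
  exact ratio_QQ ρ (fx_bot ρ hρ hne) hq hz

/-- **S2464, row `F₄(3)`** -/
theorem t6_f43 {K : Type u} [Field K] (hK : Nat.card K = 3) : T6 ↥(chevF4.group K) := t6_of_RB RBP RBQ hK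

end Cfsg.Agent.H194.RB
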